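import Cfsg.Agent.H30.ZN.Basic
import Cfsg.Agent.H76.S67.TransferC4
import Cfsg.Agent.H77.TransferTwo

/-!
In a pair of `S₄ × C₂` locals with a common Sylow 2-subgroup, the central involution lies outside
the subgroup generated by the elements of odd order (transfer to a Sylow subgroup modulo `V₁ V₂`).
-/

set_option autoImplicit false

namespace Cfsg.Agent.H83.ZNLocal

open Subgroup
open Cfsg.Agent.H30.ZN (TimesPair)

variable {G : Type*} [Group G]

section basic

variable {P₁ P₂ T V₁ V₂ : Subgroup G} {c z : G} (h : TimesPair P₁ P₂ T V₁ V₂ c z)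
include h

theorem z_mem₁ : z ∈ V₁ := by
  have : z ∈ V₁ ⊓ V₂ := by rw [h.inf_V]; exact mem_zpowers z
  exact this.1

theorem z_mem₂ : z ∈ V₂ := by
  have : z ∈ V₁ ⊓ V₂ := by rw [h.inf_V]; exact mem_zpowers z
  exact this.2

theorem sq_z : z * z = 1 := h.sq_V₁ z (z_mem₁ h)

theorem sq_c : c * c = 1 := by
  rw [← pow_two, ← h.orderOf_c]; exact pow_orderOf_eq_one c

theorem c_ne_one : c ≠ 1 := fun e => h.c_notMem (e ▸ one_mem _)

theorem mem_zpowers_z {x : G} : x ∈ zpowers z ↔ x = 1 ∨ x = z := by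
  constructor
  · rw [mem_zpowers_iff]
    rintro ⟨k, rfl⟩
    have hz2 : z ^ (2 : ℤ) = 1 := by rw [zpow_two]; exact sq_z h
    rcases Int.even_or_odd k with ⟨j, rfl⟩ | ⟨j, rfl⟩
    · left; rw [← two_mul, zpow_mul, hz2, one_zpow]
    · right; rw [zpow_add, zpow_mul, hz2, one_zpow, one_mul, zpow_one]
  · rintro (rfl | rfl)
    · exact one_mem _
    · exact mem_zpowers _

theorem swap_mul {v w : G} (hv : v ∈ V₁) (hw : w ∈ V₂) : w * v = v * w ∨ w * v = v * w * z := by
  by_cases hv' : v ∈ zpowers z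
  · left
    rcases (mem_zpowers_z h).1 hv' with rfl | rfl
    · simp
    · exact (h.z_central w (h.le_V₂ hw)).eq
  by_cases hw' : w ∈ zpowers z
  · left
    rcases (mem_zpowers_z h).1 hw' with rfl | rfl
    · simp
    · exact (h.z_central v (h.le_V₁ hv)).symm.eq
  exact Or.inr (h.not_commute v hv hv' w hw hw')

theorem conj_mem_V₁ {v w : G} (hv : v ∈ V₁) (hw : w ∈ V₂) : w * v * w⁻¹ ∈ V₁ := by
  rcases swap_mul h hv hw with e | e
  · rw [e, mul_assoc, mul_inv_cancel, mul_one]; exact hv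
  · rw [e, mul_assoc v w z, (h.z_central w (h.le_V₂ hw)).eq, ← mul_assoc, mul_assoc, mul_inv_cancel,
      mul_one]
    exact mul_mem hv (z_mem₁ h)

theorem conj_mem_V₂ {v w : G} (hv : v ∈ V₁) (hw : w ∈ V₂) : v * w * v⁻¹ ∈ V₂ := by
  have hvi : v⁻¹ = v := inv_eq_of_mul_eq_one_right (h.sq_V₁ v hv)
  rw [hvi, mul_assoc]
  rcases swap_mul h hv hw with e | e
  · rw [e, ← mul_assoc, h.sq_V₁ v hv, one_mul]; exact hw
  · rw [e, ← mul_assoc, ← mul_assoc, h.sq_V₁ v hv, one_mul]; exact mul_mem hw (z_mem₂ h)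

theorem V₂_le_normalizer : V₂ ≤ normalizer (V₁ : Set G) := by
  intro w hw
  rw [mem_normalizer_iff]
  intro v
  refine ⟨fun hv => conj_mem_V₁ h hv hw, fun hv => ?_⟩
  have := conj_mem_V₁ h hv (inv_mem hw)
  simpa [mul_assoc] using this

theorem mem_D {d : G} : d ∈ V₁ ⊔ V₂ ↔ ∃ v ∈ V₁, ∃ w ∈ V₂, d = v * w := by
  constructor
  · intro hd
    rw [← SetLike.mem_coe, Subgroup.coe_mul_of_right_le_normalizer_left V₁ V₂ (V₂_le_normalizer h)] at hd
    obtain ⟨v, hv, w, hw, rfl⟩ := Set.mem_mul.mp hd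
    exact ⟨v, hv, w, hw, rfl⟩
  · rintro ⟨v, hv, w, hw, rfl⟩
    exact mul_mem (mem_sup_left hv) (mem_sup_right hw)

theorem D_le_T : V₁ ⊔ V₂ ≤ T := sup_le h.le_V₁ h.le_V₂

theorem index_D : ((V₁ ⊔ V₂).subgroupOf T).index = 2 := by
  have e : Nat.card ↥((V₁ ⊔ V₂).subgroupOf T) = 8 := by
    rw [Nat.card_congr (Subgroup.subgroupOfEquivOfLe (D_le_T h)).toEquiv, h.card_D]
  have := card_mul_index ((V₁ ⊔ V₂).subgroupOf T)
  rw [e, h.card_T] at this
  omega

theorem mem_T_cases {t : G} (ht : t ∈ T) : t ∈ V₁ ⊔ V₂ ∨ c * t ∈ V₁ ⊔ V₂ := by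
  by_contra hn
  push Not at hn
  have h2 := mul_mem_iff_of_index_two (index_D h) (a := ⟨c, h.c_mem⟩) (b := ⟨t, ht⟩)
  simp only [mem_subgroupOf, Subgroup.coe_mul] at h2
  exact hn.2 (h2.2 ⟨fun a => absurd a h.c_notMem, fun a => absurd a hn.1⟩)

/-- Every element of `T` is `v w` or `c v w`. -/
theorem mem_T {t : G} (ht : t ∈ T) :
    ∃ v ∈ V₁, ∃ w ∈ V₂, t = v * w ∨ t = c * (v * w) := by
  rcases mem_T_cases h ht with hd | hd
  · obtain ⟨v, hv, w, hw, e⟩ := (mem_D h).1 hd
    exact ⟨v, hv, w, hw, Or.inl e⟩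
  · obtain ⟨v, hv, w, hw, e⟩ := (mem_D h).1 hd
    refine ⟨v, hv, w, hw, Or.inr ?_⟩
    rw [← e, ← mul_assoc, sq_c h, one_mul]

theorem sq_vw {v w : G} (hv : v ∈ V₁) (hw : w ∈ V₂) :
    v * w * (v * w) = 1 ∨ v * w * (v * w) = z ∧ v ∉ zpowers z ∧ w ∉ zpowers z := by
  have e1 : v * w * (v * w) = v * (w * v) * w := by group
  by_cases hv' : v ∈ zpowers z
  · left
    have : w * v = v * w := by
      rcases (mem_zpowers_z h).1 hv' with rfl | rfl
      · simp
      · exact (h.z_central w (h.le_V₂ hw)).eq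
    rw [e1, this, ← mul_assoc, h.sq_V₁ v hv, one_mul, h.sq_V₂ w hw]
  by_cases hw' : w ∈ zpowers z
  · left
    have : w * v = v * w := by
      rcases (mem_zpowers_z h).1 hw' with rfl | rfl
      · simp
      · exact (h.z_central v (h.le_V₁ hv)).symm.eq
    rw [e1, this, ← mul_assoc, h.sq_V₁ v hv, one_mul, h.sq_V₂ w hw]
  right
  refine ⟨?_, hv', hw'⟩
  rw [e1, h.not_commute v hv hv' w hw hw', mul_assoc v w z, (h.z_central w (h.le_V₂ hw)).eq,
    show v * (v * (z * w)) * w = v * v * z * (w * w) by group, h.sq_V₁ v hv, h.sq_V₂ w hw]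
  group

theorem sq_T {t : G} (ht : t ∈ T) : t * t = 1 ∨ t * t = z := by
  obtain ⟨v, hv, w, hw, e | e⟩ := mem_T h ht
  · subst e
    rcases sq_vw h hv hw with e' | ⟨e', -⟩
    exacts [Or.inl e', Or.inr e']
  · have hvw : v * w ∈ T := mul_mem (h.le_V₁ hv) (h.le_V₂ hw)
    have : t * t = v * w * (v * w) := by
      rw [e, show c * (v * w) * (c * (v * w)) = c * (v * w * c) * (v * w) by group,
        (h.c_central _ hvw).eq, ← mul_assoc c c, sq_c h, one_mul]
    rw [this]
    rcases sq_vw h hv hw with e' | ⟨e', -⟩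
    exacts [Or.inl e', Or.inr e']

/-- `Eᵢ = Vᵢ ∪ c Vᵢ`. -/
theorem mem_E {V : Subgroup G} (hV : V ≤ T) {e : G} :
    e ∈ V ⊔ zpowers c ↔ e ∈ V ∨ c * e ∈ V := by
  constructor
  · intro he
    have hn : zpowers c ≤ normalizer (V : Set G) := by
      rw [zpowers_le, mem_normalizer_iff]
      intro v
      constructor
      · intro hv
        rwa [← (h.c_central v (hV hv)).eq, mul_assoc, mul_inv_cancel, mul_one]
      · intro hv
        have hk := (h.c_central _ (hV hv)).eq
        have : c * v * c⁻¹ = v := by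
          have h2 : c⁻¹ * (c * v * c⁻¹) * c = v := by group
          rw [mul_assoc, hk, ← mul_assoc, inv_mul_cancel, one_mul] at h2
          exact h2
        rwa [this] at hv
    rw [← SetLike.mem_coe, Subgroup.coe_mul_of_right_le_normalizer_left V (zpowers c) hn] at he
    obtain ⟨v, hv, k, hk, rfl⟩ := Set.mem_mul.mp he
    obtain ⟨n, rfl⟩ := mem_zpowers_iff.1 hk
    have hc2 : c ^ (2 : ℤ) = 1 := by rw [zpow_two]; exact sq_c h
    rcases Int.even_or_odd n with ⟨j, rfl⟩ | ⟨j, rfl⟩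
    · left; rw [← two_mul, zpow_mul, hc2, one_zpow, mul_one]; exact hv
    · right
      rw [zpow_add, zpow_mul, hc2, one_zpow, one_mul, zpow_one, (h.c_central v (hV hv)).eq,
        ← mul_assoc, sq_c h, one_mul]
      exact hv
  · rintro (he | he)
    · exact mem_sup_left he
    · have : c * (c * e) ∈ V ⊔ zpowers c := mul_mem (mem_sup_right (mem_zpowers c)) (mem_sup_left he)
      rwa [← mul_assoc, sq_c h, one_mul] at this

theorem E₁_le_T : V₁ ⊔ zpowers c ≤ T := sup_le h.le_V₁ (zpowers_le.2 h.c_mem)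

theorem E₂_le_T : V₂ ⊔ zpowers c ≤ T := sup_le h.le_V₂ (zpowers_le.2 h.c_mem)

theorem sq_E {e : G} (he : e ∈ V₁ ⊔ zpowers c ∨ e ∈ V₂ ⊔ zpowers c) : e * e = 1 := by
  have hh : ∀ f : G, f ∈ T → c * f * (c * f) = 1 → f * f = 1 := by
    intro f hf e2
    rw [show c * f * (c * f) = c * (f * c) * f by group, (h.c_central f hf).eq, ← mul_assoc c c,
      sq_c h, one_mul] at e2
    exact e2
  rcases he with he | he
  · rcases (mem_E h h.le_V₁).1 he with hv | hv
    · exact h.sq_V₁ e hv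
    · exact hh e (E₁_le_T h he) (h.sq_V₁ _ hv)
  · rcases (mem_E h h.le_V₂).1 he with hv | hv
    · exact h.sq_V₂ e hv
    · exact hh e (E₂_le_T h he) (h.sq_V₂ _ hv)

theorem mem_E_of_sq {t : G} (ht : t ∈ T) (h2 : t * t = 1) :
    t ∈ V₁ ⊔ zpowers c ∨ t ∈ V₂ ⊔ zpowers c := by
  obtain ⟨v, hv, w, hw, e⟩ := mem_T h ht
  have hvw : v * w ∈ T := mul_mem (h.le_V₁ hv) (h.le_V₂ hw)
  have h3 : v * w * (v * w) = 1 := by
    rcases e with e | e
    · rwa [← e]
    · rw [e, show c * (v * w) * (c * (v * w)) = c * (v * w * c) * (v * w) by group,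
        (h.c_central _ hvw).eq, ← mul_assoc c c, sq_c h, one_mul] at h2
      exact h2
  have hvw' : v * w ∈ V₁ ∨ v * w ∈ V₂ := by
    rcases sq_vw h hv hw with - | ⟨e', -⟩
    · by_cases hv' : v ∈ zpowers z
      · exact Or.inr (mul_mem ((zpowers_le.2 (z_mem₂ h)) hv') hw)
      by_cases hw' : w ∈ zpowers z
      · exact Or.inl (mul_mem hv ((zpowers_le.2 (z_mem₁ h)) hw'))
      exfalso
      have := h.not_commute v hv hv' w hw hw'
      rw [show v * w * (v * w) = v * (w * v) * w by group, this, mul_assoc v w z,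
        (h.z_central w (h.le_V₂ hw)).eq,
        show v * (v * (z * w)) * w = v * v * z * (w * w) by group, h.sq_V₁ v hv, h.sq_V₂ w hw,
        one_mul, mul_one] at h3
      have := h.orderOf_z
      rw [h3, orderOf_one] at this
      omega
    · exfalso
      rw [h3] at e'
      have := h.orderOf_z
      rw [← e', orderOf_one] at this
      omega
  have hc : c * (c * (v * w)) = v * w := by rw [← mul_assoc, sq_c h, one_mul]
  rcases e with e | e <;> rcases hvw' with h' | h'
  · exact Or.inl ((mem_E h h.le_V₁).2 (Or.inl (e ▸ h')))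
  · exact Or.inr ((mem_E h h.le_V₂).2 (Or.inl (e ▸ h')))
  · exact Or.inl ((mem_E h h.le_V₁).2 (Or.inr (by rw [e, hc]; exact h')))
  · exact Or.inr ((mem_E h h.le_V₂).2 (Or.inr (by rw [e, hc]; exact h')))

theorem mem_E_inf {e : G} (h₁ : e ∈ V₁ ⊔ zpowers c) (h₂ : e ∈ V₂ ⊔ zpowers c) :
    e = 1 ∨ e = z ∨ e = c ∨ e = c * z := by
  have key : ∀ f : G, f ∈ V₁ → f ∈ V₂ → f = 1 ∨ f = z := fun f a b =>
    (mem_zpowers_z h).1 (h.inf_V ▸ (⟨a, b⟩ : f ∈ V₁ ⊓ V₂))
  have hc : c * (c * e) = e := by rw [← mul_assoc, sq_c h, one_mul]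
  have mixed : ∀ f : G, f ∈ V₁ ⊔ V₂ → c * f ∈ V₁ ⊔ V₂ → False := by
    intro f a b
    have := mul_mem b (inv_mem a)
    rw [mul_inv_cancel_right] at this
    exact h.c_notMem this
  rcases (mem_E h h.le_V₁).1 h₁ with a | a <;> rcases (mem_E h h.le_V₂).1 h₂ with b | b
  · rcases key e a b with r | r
    exacts [Or.inl r, Or.inr (Or.inl r)]
  · exact (mixed e (mem_sup_left a) (mem_sup_right b)).elim
  · exact (mixed e (mem_sup_right b) (mem_sup_left a)).elim
  · rcases key _ a b with r | r <;> rw [r] at hc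
    · exact Or.inr (Or.inr (Or.inl (by rw [← hc, mul_one])))
    · exact Or.inr (Or.inr (Or.inr hc.symm))

variable [Finite G]

theorem exists_outside_z {V : Subgroup G} (hV : Nat.card ↥V = 4) : ∃ a ∈ V, a ∉ zpowers z := by
  by_contra hn
  push Not at hn
  have := Subgroup.card_le_of_le (H := V) (K := zpowers z) hn
  rw [hV, Nat.card_zpowers, h.orderOf_z] at this
  omega

theorem normalizer_fix_z {x : G} (hx : x ∈ normalizer (T : Set G)) : x * z * x⁻¹ = z := by
  obtain ⟨a, ha, ha'⟩ := exists_outside_z h h.card_V₁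
  obtain ⟨b, hb, hb'⟩ := exists_outside_z h h.card_V₂
  rcases sq_vw h ha hb with e | ⟨e, -⟩
  · exfalso
    have h1 : b * a = a * b := by
      have h2 : a * (a * b * (a * b)) * b = a * b := by rw [e, mul_one]
      rw [show a * (a * b * (a * b)) * b = a * a * (b * a) * (b * b) by group, h.sq_V₁ a ha,
        h.sq_V₂ b hb, one_mul, mul_one] at h2
      exact h2
    rw [h.not_commute a ha ha' b hb hb'] at h1
    exact ha' (absurd (mul_eq_left.mp h1) fun hz => by
      have := h.orderOf_z; rw [hz, orderOf_one] at this; omega)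
  · have ht : x * (a * b) * x⁻¹ ∈ T :=
      ((mem_normalizer_iff.1 hx) (a * b)).1 (mul_mem (h.le_V₁ ha) (h.le_V₂ hb))
    have e2 : x * (a * b) * x⁻¹ * (x * (a * b) * x⁻¹) = x * z * x⁻¹ := by rw [← e]; group
    rcases sq_T h ht with e3 | e3
    · exfalso
      rw [e2] at e3
      have hz : z = 1 := by
        have h4 : x⁻¹ * (x * z * x⁻¹) * x = z := by group
        rw [e3] at h4
        rw [← h4]; group
      have := h.orderOf_z; rw [hz, orderOf_one] at this; omega
    · rw [← e2]; exact e3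

theorem E₁_ne_E₂ : V₁ ⊔ zpowers c ≠ V₂ ⊔ zpowers c := by
  intro e
  have : P₁ = P₂ := by rw [← h.normalizer_E₁, e, h.normalizer_E₂]
  have h2 := h.inf_eq
  rw [← this, inf_idem] at h2
  have := h.card_P₁
  rw [h2, h.card_T] at this
  omega

theorem card_E {V : Subgroup G} (hV : V ≤ T) (hD : V ≤ V₁ ⊔ V₂) (hc : Nat.card ↥V = 4) :
    Nat.card ↥(V ⊔ zpowers c) = 8 := by
  classical
  have hs : ((V ⊔ zpowers c : Subgroup G) : Set G) = (V : Set G) ∪ (fun v => c * v) '' (V : Set G) := by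
    ext e
    rw [SetLike.mem_coe, mem_E h hV, Set.mem_union, Set.mem_image]
    refine or_congr Iff.rfl ⟨fun he => ⟨c * e, he, ?_⟩, ?_⟩
    · show c * (c * e) = e
      rw [← mul_assoc, sq_c h, one_mul]
    · rintro ⟨v, hv, rfl⟩
      show c * (c * v) ∈ V
      rw [← mul_assoc, sq_c h, one_mul]; exact hv
  rw [← SetLike.coe_sort_coe, Nat.card_coe_set_eq, hs, Set.ncard_union_eq]
  · rw [Set.ncard_image_of_injective _ (mul_right_injective c), ← Nat.card_coe_set_eq,
      SetLike.coe_sort_coe, hc]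
  · rw [Set.disjoint_left]
    rintro _ hv ⟨v, hv', rfl⟩
    apply h.c_notMem
    have := mul_mem (hD hv) (inv_mem (hD hv'))
    rwa [mul_inv_cancel_right] at this

theorem inf_sylow (S : Sylow 2 G) (hTS : T ≤ (S : Subgroup G)) : P₁ ⊓ (S : Subgroup G) = T := by
  refine (eq_of_le_of_card_ge (le_inf h.le_P₁ hTS) ?_).symm
  obtain ⟨k, hk⟩ := (IsPGroup.iff_card.mp (S.isPGroup'.to_le (inf_le_right : P₁ ⊓ (S : Subgroup G) ≤ S)))
  have hd : 2 ^ k ∣ 48 := by
    rw [← hk, ← h.card_P₁]; exact card_dvd_of_le inf_le_left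
  rw [hk, h.card_T]
  have : k ≤ 4 := by
    by_contra hn
    push Not at hn
    have h32 : 2 ^ 5 ∣ 48 := (pow_dvd_pow 2 hn).trans hd
    norm_num at h32
  exact (Nat.pow_le_pow_right (by norm_num) this).trans (by norm_num)

theorem not_conj_c_z (S : Sylow 2 G) (hTS : T ≤ (S : Subgroup G)) : ¬ IsConj c z := by
  haveI : Fact (Nat.Prime 2) := ⟨Nat.prime_two⟩
  intro hcz
  obtain ⟨g, hg⟩ := isConj_iff.1 hcz
  have hC : Nat.card ↥(centralizer ({z} : Set G)) = 48 := by
    have e : centralizer ({z} : Set G) = P₁.map (MulAut.conj g).toMonoidHom := by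
      rw [← h.centralizer_c]
      ext y
      rw [mem_map_equiv, MulAut.conj_symm_apply, mem_centralizer_singleton_iff,
        mem_centralizer_singleton_iff, ← hg]
      constructor
      · intro e
        have := congrArg (fun u => g⁻¹ * u * g) e
        simpa [mul_assoc] using this
      · intro e
        have := congrArg (fun u => g * u * g⁻¹) e
        simpa [mul_assoc] using this
    rw [e, card_map_of_injective (MulAut.conj g).injective, h.card_P₁]
  -- the centraliser of `z` leaves no room above `T`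
  have hN : ((S : Subgroup G) ⊓ normalizer (T : Set G)) ≤ T := by
    have hle : (S : Subgroup G) ⊓ normalizer (T : Set G) ≤ centralizer ({z} : Set G) := by
      intro y hy
      rw [mem_centralizer_singleton_iff]
      have := normalizer_fix_z h hy.2
      exact mul_inv_eq_iff_eq_mul.1 this
    refine le_of_eq (eq_of_le_of_card_ge (le_inf hTS Subgroup.le_normalizer) ?_).symm
    obtain ⟨k, hk⟩ := IsPGroup.iff_card.mp
      (S.isPGroup'.to_le (inf_le_left : (S : Subgroup G) ⊓ normalizer (T : Set G) ≤ S))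
    have hd : 2 ^ k ∣ 48 := by rw [← hk, ← hC]; exact card_dvd_of_le hle
    rw [hk, h.card_T]
    have : k ≤ 4 := by
      by_contra hn
      push Not at hn
      have h32 : 2 ^ 5 ∣ 48 := (pow_dvd_pow 2 hn).trans hd
      norm_num at h32
    exact (Nat.pow_le_pow_right (by norm_num) this).trans (by norm_num)
  have hST : (S : Subgroup G) ≤ T := by
    by_contra hn
    haveI : Group.IsNilpotent ↥(S : Subgroup G) := S.isPGroup'.isNilpotent
    have hne : T.subgroupOf (S : Subgroup G) < ⊤ := by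
      rw [lt_top_iff_ne_top, Ne, subgroupOf_eq_top]; exact hn
    obtain ⟨y, hy1, hy2⟩ := SetLike.exists_of_lt (normalizerCondition_of_isNilpotent _ hne)
    apply hy2
    rw [mem_subgroupOf]
    refine hN ⟨y.2, ?_⟩
    show (y : G) ∈ normalizer (T : Set G)
    rw [mem_normalizer_iff] at hy1 ⊢
    intro t
    constructor
    · intro ht
      have := (hy1 ⟨t, hTS ht⟩).1 (mem_subgroupOf.2 ht)
      simpa [mem_subgroupOf] using this
    · intro ht
      have htS : t ∈ (S : Subgroup G) := by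
        have := mul_mem (mul_mem (inv_mem y.2) (hTS ht)) y.2
        simpa [mul_assoc] using this
      refine (hy1 ⟨t, htS⟩).2 ?_
      simpa [mem_subgroupOf] using ht
  have hcent : ∀ u : G, (∀ t ∈ T, Commute t u) → u ∈ centralizer ((S : Subgroup G) : Set G) :=
    fun u hu => mem_centralizer_iff.2 fun s hs => (hu s (hST hs)).eq
  have h2 : (g⁻¹)⁻¹ * c * g⁻¹ = z := by rw [inv_inv]; exact hg
  obtain ⟨n, hn, e⟩ := S.conj_eq_normalizer_conj_of_mem_centralizer c g⁻¹
    (hcent c h.c_central) (by rw [h2]; exact hcent z h.z_central)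
  rw [h2] at e
  have hn' : n ∈ normalizer (T : Set G) := by
    have hTeq : T = (S : Subgroup G) := le_antisymm hTS hST
    rw [hTeq]; exact hn
  have h3 := normalizer_fix_z h hn'
  have : c = z := by
    calc c = n * (n⁻¹ * c * n) * n⁻¹ := by group
      _ = z := by rw [← e, h3]
  exact h.c_notMem (this ▸ mem_sup_left (z_mem₁ h))

end basic

section sylow

variable [Finite G] {P₁ P₂ T V₁ V₂ : Subgroup G} {c z : G}

theorem mem_V_of_mem_D (h : TimesPair P₁ P₂ T V₁ V₂ c z) {d : G} (hd : d ∈ V₁ ⊔ V₂)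
    (h2 : d * d = 1) : d ∈ V₁ ∨ d ∈ V₂ := by
  have key : c * d ∈ V₁ ⊔ V₂ → False := fun hcd => by
    have := mul_mem hcd (inv_mem hd)
    rw [mul_inv_cancel_right] at this
    exact h.c_notMem this
  rcases mem_E_of_sq h (D_le_T h hd) h2 with he | he
  · rcases (mem_E h h.le_V₁).1 he with hv | hv
    exacts [Or.inl hv, (key (mem_sup_left hv)).elim]
  · rcases (mem_E h h.le_V₂).1 he with hv | hv
    exacts [Or.inr hv, (key (mem_sup_right hv)).elim]

theorem sq_of_conj {t u : G} (ht : t * t = 1) (hu : IsConj t u) : u * u = 1 := by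
  obtain ⟨g, rfl⟩ := isConj_iff.1 hu
  calc g * t * g⁻¹ * (g * t * g⁻¹) = g * (t * t) * g⁻¹ := by group
    _ = 1 := by rw [ht]; group

theorem map_conj_eq_or (h : TimesPair P₁ P₂ T V₁ V₂ c z) {E : Subgroup G} (hc : Nat.card ↥E = 8)
    (hsq : ∀ e ∈ E, e * e = 1) {x : G} (hx : x ∈ normalizer (T : Set G)) (hE : E ≤ T) :
    E.map (MulAut.conj x).toMonoidHom = V₁ ⊔ zpowers c ∨
      E.map (MulAut.conj x).toMonoidHom = V₂ ⊔ zpowers c := by
  set F := E.map (MulAut.conj x).toMonoidHom with hF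
  have hFc : Nat.card ↥F = 8 := by rw [hF, card_map_of_injective (MulAut.conj x).injective, hc]
  have hmem : ∀ f ∈ F, f ∈ V₁ ⊔ zpowers c ∨ f ∈ V₂ ⊔ zpowers c := by
    rintro _ ⟨e, he, rfl⟩
    have h' : x * e * x⁻¹ * (x * e * x⁻¹) = 1 := by
      calc x * e * x⁻¹ * (x * e * x⁻¹) = x * (e * e) * x⁻¹ := by group
        _ = 1 := by rw [hsq e he]; group
    exact mem_E_of_sq h ((mem_normalizer_iff.1 hx e).1 (hE he)) h'
  have hor : F ≤ V₁ ⊔ zpowers c ∨ F ≤ V₂ ⊔ zpowers c := by
    by_contra hn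
    push Not at hn
    obtain ⟨f, hf, hf'⟩ := SetLike.not_le_iff_exists.1 hn.1
    obtain ⟨g, hg, hg'⟩ := SetLike.not_le_iff_exists.1 hn.2
    have hf2 := (hmem f hf).resolve_left hf'
    have hg2 := (hmem g hg).resolve_right hg'
    rcases hmem _ (mul_mem hf hg) with a | a
    · exact hf' ((mul_mem_cancel_right hg2).1 a)
    · exact hg' ((mul_mem_cancel_left hf2).1 a)
  rcases hor with a | a
  · exact Or.inl (eq_of_le_of_card_ge a
      (by rw [card_E h h.le_V₁ le_sup_left h.card_V₁, hFc]))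
  · exact Or.inr (eq_of_le_of_card_ge a
      (by rw [card_E h h.le_V₂ le_sup_right h.card_V₂, hFc]))

theorem mem_normalizer_of_map_eq {H : Subgroup G} {x : G}
    (e : H.map (MulAut.conj x).toMonoidHom = H) : x ∈ normalizer (H : Set G) := by
  rw [mem_normalizer_iff]
  intro n
  constructor
  · intro hn
    exact e ▸ mem_map_of_mem (MulAut.conj x).toMonoidHom hn
  · intro hn
    have hn' : x * n * x⁻¹ ∈ H.map (MulAut.conj x).toMonoidHom := e.symm ▸ hn
    obtain ⟨m, hm, hmn⟩ := hn'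
    have : m = n := (MulAut.conj x).injective hmn
    exact this ▸ hm

theorem outside_notMem (h : TimesPair P₁ P₂ T V₁ V₂ c z) (S : Sylow 2 G)
    (hTS : T ≤ (S : Subgroup G)) {x : G} (hxS : x ∈ (S : Subgroup G)) (hxT : x ∉ T) : x ∉ P₁ :=
  fun hx => hxT ((inf_sylow h S hTS).le ⟨hx, hxS⟩)

theorem swap_E₁ (h : TimesPair P₁ P₂ T V₁ V₂ c z) (S : Sylow 2 G)
    (hTS : T ≤ (S : Subgroup G)) {x : G} (hxS : x ∈ (S : Subgroup G))
    (hxN : x ∈ normalizer (T : Set G)) (hxT : x ∉ T) :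
    (V₁ ⊔ zpowers c).map (MulAut.conj x).toMonoidHom = V₂ ⊔ zpowers c := by
  refine (map_conj_eq_or h (card_E h h.le_V₁ le_sup_left h.card_V₁)
    (fun e he => sq_E h (Or.inl he)) hxN (E₁_le_T h)).resolve_left fun e => ?_
  exact outside_notMem h S hTS hxS hxT (h.normalizer_E₁ ▸ mem_normalizer_of_map_eq e)

theorem swap_E₂ (h : TimesPair P₁ P₂ T V₁ V₂ c z) (S : Sylow 2 G)
    (hTS : T ≤ (S : Subgroup G)) {x : G} (hxS : x ∈ (S : Subgroup G))
    (hxN : x ∈ normalizer (T : Set G)) (hxT : x ∉ T) :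
    (V₂ ⊔ zpowers c).map (MulAut.conj x).toMonoidHom = V₁ ⊔ zpowers c := by
  refine (map_conj_eq_or h (card_E h h.le_V₂ le_sup_right h.card_V₂)
    (fun e he => sq_E h (Or.inr he)) hxN (E₂_le_T h)).resolve_right fun e => ?_
  exact E₁_ne_E₂ h (map_injective (MulAut.conj x).injective
    ((swap_E₁ h S hTS hxS hxN hxT).trans e.symm))

theorem mul_mem_T (h : TimesPair P₁ P₂ T V₁ V₂ c z) (S : Sylow 2 G)
    (hTS : T ≤ (S : Subgroup G)) {x y : G} (hxS : x ∈ (S : Subgroup G))
    (hxN : x ∈ normalizer (T : Set G)) (hxT : x ∉ T) (hyS : y ∈ (S : Subgroup G))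
    (hyN : y ∈ normalizer (T : Set G)) (hyT : y ∉ T) : x * y ∈ T := by
  refine (inf_sylow h S hTS).le ⟨h.normalizer_E₁ ▸ mem_normalizer_of_map_eq ?_, mul_mem hxS hyS⟩
  have e : (MulAut.conj (x * y)).toMonoidHom =
      (MulAut.conj x).toMonoidHom.comp (MulAut.conj y).toMonoidHom := by
    ext v
    simp [mul_assoc]
  rw [e, ← map_map, swap_E₁ h S hTS hyS hyN hyT, swap_E₂ h S hTS hxS hxN hxT]

theorem conj_c (h : TimesPair P₁ P₂ T V₁ V₂ c z) (S : Sylow 2 G)
    (hTS : T ≤ (S : Subgroup G)) {x : G} (hxS : x ∈ (S : Subgroup G))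
    (hxN : x ∈ normalizer (T : Set G)) (hxT : x ∉ T) : x * c * x⁻¹ = c * z := by
  have h₁ : x * c * x⁻¹ ∈ V₁ ⊔ zpowers c := by
    rw [← swap_E₂ h S hTS hxS hxN hxT]
    exact mem_map_of_mem _ (mem_sup_right (mem_zpowers c))
  have h₂ : x * c * x⁻¹ ∈ V₂ ⊔ zpowers c := by
    rw [← swap_E₁ h S hTS hxS hxN hxT]
    exact mem_map_of_mem _ (mem_sup_right (mem_zpowers c))
  rcases mem_E_inf h h₁ h₂ with e | e | e | e
  · exact absurd (conj_eq_one_iff.1 e) (c_ne_one h)
  · exact absurd (isConj_iff.2 ⟨x, e⟩) (not_conj_c_z h S hTS)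
  · exfalso
    refine outside_notMem h S hTS hxS hxT (h.centralizer_c ▸ ?_)
    exact mem_centralizer_singleton_iff.2 (mul_inv_eq_iff_eq_mul.1 e)
  · exact e

theorem isConj_mul_z (h : TimesPair P₁ P₂ T V₁ V₂ c z) (S : Sylow 2 G)
    (hTS : T ≤ (S : Subgroup G)) {x : G} (hxS : x ∈ (S : Subgroup G))
    (hxN : x ∈ normalizer (T : Set G)) (hxT : x ∉ T) : IsConj c (c * z) :=
  isConj_iff.2 ⟨x, conj_c h S hTS hxS hxN hxT⟩

theorem isConj_c_mul₁ (h : TimesPair P₁ P₂ T V₁ V₂ c z)
    (hP : ∀ v ∈ V₁, v ≠ 1 → ∃ g ∈ P₁, g * z * g⁻¹ = v) (hcz : IsConj c (c * z)) {v : G}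
    (hv : v ∈ V₁) : IsConj c (c * v) := by
  rcases eq_or_ne v 1 with rfl | h1
  · rw [mul_one]
  obtain ⟨g, hg, e⟩ := hP v hv h1
  rw [← h.centralizer_c, mem_centralizer_singleton_iff] at hg
  refine hcz.trans (isConj_iff.2 ⟨g, ?_⟩)
  calc g * (c * z) * g⁻¹ = g * c * g⁻¹ * (g * z * g⁻¹) := by group
    _ = c * v := by rw [hg, mul_inv_cancel_right, e]

theorem swap_V₂ (h : TimesPair P₁ P₂ T V₁ V₂ c z)
    (hP : ∀ v ∈ V₁, v ≠ 1 → ∃ g ∈ P₁, g * z * g⁻¹ = v) (S : Sylow 2 G)
    (hTS : T ≤ (S : Subgroup G)) {x : G} (hxS : x ∈ (S : Subgroup G))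
    (hxN : x ∈ normalizer (T : Set G)) (hxT : x ∉ T) :
    V₂.map (MulAut.conj x).toMonoidHom = V₁ := by
  refine eq_of_le_of_card_ge ?_ (by
    rw [card_map_of_injective (MulAut.conj x).injective, h.card_V₁, h.card_V₂])
  rintro _ ⟨w, hw, rfl⟩
  have hy : x * w * x⁻¹ ∈ V₁ ⊔ zpowers c := by
    rw [← swap_E₂ h S hTS hxS hxN hxT]
    exact mem_map_of_mem _ (mem_sup_left hw)
  rcases eq_or_ne w 1 with rfl | h1
  · simp
  rcases (mem_E h h.le_V₁).1 hy with hv | hv
  · exact hv
  · exfalso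
    have hzy : IsConj z (x * w * x⁻¹) := (h.conj_V₂ w hw h1).trans (isConj_iff.2 ⟨x, rfl⟩)
    have hcy := isConj_c_mul₁ h hP (isConj_mul_z h S hTS hxS hxN hxT) hv
    rw [← mul_assoc, sq_c h, one_mul] at hcy
    exact not_conj_c_z h S hTS (hcy.trans hzy.symm)

theorem swap_V₁ (h : TimesPair P₁ P₂ T V₁ V₂ c z)
    (hP : ∀ v ∈ V₁, v ≠ 1 → ∃ g ∈ P₁, g * z * g⁻¹ = v) (S : Sylow 2 G)
    (hTS : T ≤ (S : Subgroup G)) {x : G} (hxS : x ∈ (S : Subgroup G))
    (hxN : x ∈ normalizer (T : Set G)) (hxT : x ∉ T) :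
    V₁.map (MulAut.conj x).toMonoidHom = V₂ := by
  rw [← swap_V₂ h hP S hTS (inv_mem hxS) (inv_mem hxN) (fun a => hxT (inv_mem_iff.1 a)), map_map]
  have e : (MulAut.conj x).toMonoidHom.comp (MulAut.conj x⁻¹).toMonoidHom = MonoidHom.id G := by
    ext v
    simp [mul_assoc]
  rw [e, map_id]

theorem isConj_c_mul₂ (h : TimesPair P₁ P₂ T V₁ V₂ c z)
    (hP : ∀ v ∈ V₁, v ≠ 1 → ∃ g ∈ P₁, g * z * g⁻¹ = v) (S : Sylow 2 G)
    (hTS : T ≤ (S : Subgroup G)) {x : G} (hxS : x ∈ (S : Subgroup G))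
    (hxN : x ∈ normalizer (T : Set G)) (hxT : x ∉ T) {w : G} (hw : w ∈ V₂) :
    IsConj c (c * w) := by
  have hxT' : x⁻¹ ∉ T := fun a => hxT (inv_mem_iff.1 a)
  have hv : x * w * x⁻¹ ∈ V₁ := by
    rw [← swap_V₂ h hP S hTS hxS hxN hxT]
    exact mem_map_of_mem _ hw
  have hcz := isConj_mul_z h S hTS hxS hxN hxT
  refine (isConj_c_mul₁ h hP hcz (mul_mem (z_mem₁ h) hv)).trans (isConj_iff.2 ⟨x⁻¹, ?_⟩)
  have e1 : x * c * x⁻¹ = c * z := conj_c h S hTS hxS hxN hxT
  rw [inv_inv]
  calc x⁻¹ * (c * (z * (x * w * x⁻¹))) * x = x⁻¹ * (c * z) * x * w := by group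
    _ = c * w := by rw [← e1]; group

theorem sylow_le_normalizer (h : TimesPair P₁ P₂ T V₁ V₂ c z) (S : Sylow 2 G)
    (hTS : T ≤ (S : Subgroup G)) : (S : Subgroup G) ≤ normalizer (T : Set G) := by
  haveI : Fact (Nat.Prime 2) := ⟨Nat.prime_two⟩
  set T₁ : Subgroup G := (S : Subgroup G) ⊓ normalizer (T : Set G) with hT₁
  have key : ∀ y : G, y ∈ normalizer (T₁ : Set G) → y ∈ normalizer (T : Set G) := by
    intro y hy
    have hE : ∀ E : Subgroup G, E ≤ T → Nat.card ↥E = 8 → (∀ e ∈ E, e * e = 1) →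
        ∀ e ∈ E, y * e * y⁻¹ ∈ T := by
      intro E hET hE8 hEsq e₀ he₀
      by_contra hu
      set u := y * e₀ * y⁻¹ with hudef
      have hsq : ∀ e ∈ E, y * e * y⁻¹ * (y * e * y⁻¹) = 1 := fun e he =>
        sq_of_conj (hEsq e he) (isConj_iff.2 ⟨y, rfl⟩)
      have hmem : ∀ e ∈ E, y * e * y⁻¹ ∈ T₁ := fun e he =>
        (mem_normalizer_iff.1 hy e).1 ⟨hTS (hET he), Subgroup.le_normalizer (hET he)⟩
      obtain ⟨huS, huN⟩ := hmem e₀ he₀
      have hsmall : ∀ e ∈ E, y * e * y⁻¹ ∈ T → e ∈ zpowers (y⁻¹ * z * y) := by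
        intro e he heT
        have hcom : u * (y * e * y⁻¹) * u⁻¹ = y * e * y⁻¹ := by
          have he0 : e₀ * e * e₀⁻¹ = e := by
            have h3 : e₀ * e * (e₀ * e) = 1 := hEsq _ (mul_mem he₀ he)
            rw [inv_eq_of_mul_eq_one_right (hEsq _ he₀)]
            calc e₀ * e * e₀ = e₀ * e * (e₀ * e) * e⁻¹ := by group
              _ = e⁻¹ := by rw [h3, one_mul]
              _ = e := inv_eq_of_mul_eq_one_right (hEsq _ he)
          calc u * (y * e * y⁻¹) * u⁻¹ = y * (e₀ * e * e₀⁻¹) * y⁻¹ := by rw [hudef]; group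
            _ = _ := by rw [he0]
        generalize hf : y * e * y⁻¹ = f at hcom heT
        have hf2 : f * f = 1 := hf ▸ hsq e he
        have hboth : f ∈ V₁ ⊔ zpowers c ∧ f ∈ V₂ ⊔ zpowers c := by
          rcases mem_E_of_sq h heT hf2 with a | a
          · refine ⟨a, ?_⟩
            rw [← swap_E₁ h S hTS huS huN hu, ← hcom]
            exact mem_map_of_mem _ a
          · refine ⟨?_, a⟩
            rw [← swap_E₂ h S hTS huS huN hu, ← hcom]
            exact mem_map_of_mem _ a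
        have he' : e = y⁻¹ * f * y := by rw [← hf]; group
        have hucu := conj_c h S hTS huS huN hu
        have hzne : z ≠ 1 := fun a => by
          have := h.orderOf_z; rw [a, orderOf_one] at this; omega
        have hz : u * z * u⁻¹ = z := normalizer_fix_z h huN
        rcases mem_E_inf h hboth.1 hboth.2 with rfl | rfl | rfl | rfl
        · rw [he']; simp
        · rw [he']; exact mem_zpowers _
        · exact absurd (mul_eq_left.mp (hucu.symm.trans hcom)) hzne
        · exfalso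
          have h4 : u * (c * z) * u⁻¹ = c * z * z := by
            calc u * (c * z) * u⁻¹ = u * c * u⁻¹ * (u * z * u⁻¹) := by group
              _ = _ := by rw [hucu, hz]
          exact hzne (mul_eq_left.mp (h4.symm.trans hcom))
      classical
      have hsub : (E : Set G) ⊆ (zpowers (y⁻¹ * z * y) : Set G) ∪
          (fun k => k * e₀) '' (zpowers (y⁻¹ * z * y) : Set G) := by
        intro e he
        by_cases heT : y * e * y⁻¹ ∈ T
        · exact Or.inl (hsmall e he heT)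
        · refine Or.inr ⟨e * e₀, hsmall _ (mul_mem he he₀) ?_, ?_⟩
          · have := mul_mem_T h S hTS (hmem e he).1 (hmem e he).2 heT huS huN hu
            rw [show y * (e * e₀) * y⁻¹ = y * e * y⁻¹ * u by rw [hudef]; group]
            exact this
          · show e * e₀ * e₀ = e
            rw [mul_assoc, hEsq _ he₀, mul_one]
      have hle := (Set.ncard_le_ncard hsub (Set.toFinite _)).trans (Set.ncard_union_le _ _)
      have hz2 : (zpowers (y⁻¹ * z * y) : Set G).ncard = 2 := by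
        rw [← Nat.card_coe_set_eq, SetLike.coe_sort_coe, Nat.card_zpowers]
        have : y⁻¹ * z * y = MulAut.conj y⁻¹ z := by simp
        rw [this, MulEquiv.orderOf_eq, h.orderOf_z]
      rw [Set.ncard_image_of_injective _ (mul_left_injective e₀), hz2, ← Nat.card_coe_set_eq,
        SetLike.coe_sort_coe, hE8] at hle
      omega
    have h₁ := hE _ (E₁_le_T h) (card_E h h.le_V₁ le_sup_left h.card_V₁)
      (fun e he => sq_E h (Or.inl he))
    have h₂ := hE _ (E₂_le_T h) (card_E h h.le_V₂ le_sup_right h.card_V₂)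
      (fun e he => sq_E h (Or.inr he))
    apply mem_normalizer_of_map_eq
    refine eq_of_le_of_card_ge ?_ (card_map_of_injective (MulAut.conj y).injective).ge
    have hgen : T ≤ (V₁ ⊔ zpowers c) ⊔ (V₂ ⊔ zpowers c) := by
      intro t ht
      obtain ⟨v, hv, w, hw, rfl | rfl⟩ := mem_T h ht
      · exact mul_mem (mem_sup_left (mem_sup_left hv)) (mem_sup_right (mem_sup_left hw))
      · exact mul_mem (mem_sup_left (mem_sup_right (mem_zpowers c)))
          (mul_mem (mem_sup_left (mem_sup_left hv)) (mem_sup_right (mem_sup_left hw)))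
    refine (map_mono hgen).trans ?_
    rw [Subgroup.map_sup]
    refine sup_le ?_ ?_
    · rintro _ ⟨e, he, rfl⟩; exact h₁ e he
    · rintro _ ⟨e, he, rfl⟩; exact h₂ e he
  by_contra hn
  haveI : Group.IsNilpotent ↥(S : Subgroup G) := S.isPGroup'.isNilpotent
  have hne : T₁.subgroupOf (S : Subgroup G) < ⊤ := by
    rw [lt_top_iff_ne_top, Ne, subgroupOf_eq_top]
    exact fun a => hn fun s hs => (a hs).2
  obtain ⟨y, hy1, hy2⟩ := SetLike.exists_of_lt (normalizerCondition_of_isNilpotent _ hne)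
  apply hy2
  rw [mem_subgroupOf]
  refine ⟨y.2, key _ ?_⟩
  rw [mem_normalizer_iff] at hy1 ⊢
  intro t
  constructor
  · intro ht
    have := (hy1 ⟨t, ht.1⟩).1 (mem_subgroupOf.2 ht)
    simpa [mem_subgroupOf] using this
  · intro ht
    have htS : t ∈ (S : Subgroup G) := by
      have := mul_mem (mul_mem (inv_mem y.2) ht.1) y.2
      simpa [mul_assoc] using this
    refine (hy1 ⟨t, htS⟩).2 ?_
    simpa [mem_subgroupOf] using ht

end sylow

section transfer

variable [Finite G]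

/-- Thompson transfer for an involution none of whose conjugates lies in the kernel. -/
theorem transfer_eq_neg_one (S : Sylow 2 G) (φ : ↥(S : Subgroup G) →* ℤˣ) {t : G} (ht : t * t = 1)
    (hno : ∀ y : ↥(S : Subgroup G), IsConj t (y : G) → φ y = -1) :
    MonoidHom.transfer φ t = -1 := by
  classical
  haveI : Fact (Nat.Prime 2) := ⟨Nat.prime_two⟩
  haveI : Fintype (G ⧸ (S : Subgroup G)) := Fintype.ofFinite _
  let per : MulAction.orbitRel.Quotient (zpowers t) (G ⧸ (S : Subgroup G)) → ℕ := fun q =>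
    Function.minimalPeriod (t • ·) q.out
  haveI : Fintype (MulAction.orbitRel.Quotient (zpowers t) (G ⧸ (S : Subgroup G))) := Fintype.ofFinite _
  have hdvd : ∀ q, per q ∣ 2 := fun q => by
    refine Function.IsPeriodicPt.minimalPeriod_dvd ?_
    change t • t • q.out = q.out
    rw [smul_smul, ht, one_smul]
  have hsum : ∑ q, per q = Nat.card (G ⧸ (S : Subgroup G)) := by
    rw [Nat.card_congr (MulAction.selfEquivSigmaOrbits (zpowers t) (G ⧸ (S : Subgroup G))), Nat.card_sigma]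
    exact Finset.sum_congr rfl fun q _ => by
      rw [Nat.card_eq_fintype_card]
      exact MulAction.minimalPeriod_eq_card t q.out
  have hterm : ∀ q, φ ⟨q.out.out⁻¹ * t ^ per q * q.out.out,
      QuotientGroup.out_conj_pow_minimalPeriod_mem (S : Subgroup G) t q.out⟩ = (-1) ^ per q := by
    intro q
    rcases (Nat.dvd_prime Nat.prime_two).1 (hdvd q) with h1 | h1
    · rw [show ((-1 : ℤˣ) ^ per q) = -1 by rw [h1, pow_one]]
      refine hno _ (isConj_iff.2 ⟨q.out.out⁻¹, ?_⟩)
      simp [h1]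
    · rw [show ((-1 : ℤˣ) ^ per q) = 1 by rw [h1]; decide, ← map_one φ]
      congr 1
      exact Subtype.ext (by simp [h1, pow_two, ht])
  have hodd : Odd (Nat.card (G ⧸ (S : Subgroup G))) :=
    Nat.not_even_iff_odd.1 fun he => S.not_dvd_index (even_iff_two_dvd.1 he)
  rw [MonoidHom.transfer_eq_prod_quotient_orbitRel_zpowers_quot φ t]
  simp only [per] at hterm hsum
  rw [Finset.prod_congr rfl (fun q _ => hterm q), Finset.prod_pow_eq_pow_sum, hsum,
    hodd.neg_one_pow]

theorem notMem_closure_odd {A : Type*} [CommGroup A] (ψ : G →* A) {t : G} (ht : ψ t ≠ 1)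
    (hA : ∀ a : A, a ^ 4 = 1) : t ∉ Subgroup.closure {g : G | Odd (orderOf g)} := by
  intro hm
  refine ht (MonoidHom.mem_ker.1 ((closure_le _).2 (fun g hg => ?_) hm))
  rw [SetLike.mem_coe, MonoidHom.mem_ker, ← orderOf_eq_one_iff]
  have h1 : orderOf (ψ g) ∣ orderOf g := orderOf_map_dvd ψ g
  have h2 : orderOf (ψ g) ∣ 2 ^ 2 := orderOf_dvd_of_pow_eq_one (hA _)
  have hc : Nat.Coprime (orderOf g) (2 ^ 2) := Nat.Coprime.pow_right 2 hg.coprime_two_right
  exact Nat.dvd_one.1 (hc.gcd_eq_one ▸ Nat.dvd_gcd h1 h2)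

variable {P₁ P₂ T V₁ V₂ : Subgroup G} {c z : G}

open Cfsg.Agent.H76.S67 in
/-- The value of the transfer on `c` when `T` has index two in a Sylow subgroup. -/
theorem transfer_c (h : TimesPair P₁ P₂ T V₁ V₂ c z)
    (hP : ∀ v ∈ V₁, v ≠ 1 → ∃ g ∈ P₁, g * z * g⁻¹ = v) (S : Sylow 2 G)
    (hTS : T ≤ (S : Subgroup G)) (hcard : Nat.card ↥(S : Subgroup G) = 32)
    {x : G} (hxS : x ∈ (S : Subgroup G)) (hxT : x ∉ T)
    {A : Type*} [CommGroup A] (φ : ↥(S : Subgroup G) →* A) {s : A} (hs : s ≠ 1) (hs2 : s * s = 1)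
    (hA : ∀ a : A, a * a = 1 → a = 1 ∨ a = s)
    (hD : ∀ (d : G) (hd : d ∈ (S : Subgroup G)), d ∈ V₁ ⊔ V₂ → φ ⟨d, hd⟩ = 1)
    (hc : φ ⟨c, hTS h.c_mem⟩ = s) : MonoidHom.transfer φ c = s := by
  classical
  have hN := sylow_le_normalizer h S hTS
  have hcz := isConj_mul_z h S hTS hxS (hN hxS) hxT
  have hnc := not_conj_c_z h S hTS
  set X : Set G := (fun d => c * d) '' ((V₁ : Set G) ∪ V₂) with hX
  set Y : Set G := {u : G | u ∉ T ∧ IsConj c u ∧ Val (S : Subgroup G) φ s u} with hY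
  have hset : {u : G | IsConj c u ∧ Val (S : Subgroup G) φ s u} = X ∪ Y := by
    ext u
    constructor
    · rintro ⟨hu, hv⟩
      by_cases huT : u ∈ T
      · left
        have hu2 := sq_of_conj (sq_c h) hu
        have hu1 : u ≠ 1 := by
          rintro rfl
          exact c_ne_one h (isConj_one_left.1 hu)
        have hback : c * (c * u) = u := by rw [← mul_assoc, sq_c h, one_mul]
        rcases mem_E_of_sq h huT hu2 with he | he
        · rcases (mem_E h h.le_V₁).1 he with a | a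
          · exact absurd (hu.trans (h.conj_V₁ u a hu1).symm) hnc
          · exact ⟨c * u, Or.inl a, hback⟩
        · rcases (mem_E h h.le_V₂).1 he with a | a
          · exact absurd (hu.trans (h.conj_V₂ u a hu1).symm) hnc
          · exact ⟨c * u, Or.inr a, hback⟩
      · exact Or.inr ⟨huT, hu, hv⟩
    · rintro (⟨d, hd, rfl⟩ | ⟨-, hu, hv⟩)
      · have hdD : d ∈ V₁ ⊔ V₂ := hd.elim (fun a => mem_sup_left a) (fun a => mem_sup_right a)
        refine ⟨hd.elim (fun a => isConj_c_mul₁ h hP hcz a)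
          (fun a => isConj_c_mul₂ h hP S hTS hxS (hN hxS) hxT a),
          mul_mem (hTS h.c_mem) (hTS (D_le_T h hdD)), ?_⟩
        have : (⟨c * d, mul_mem (hTS h.c_mem) (hTS (D_le_T h hdD))⟩ : ↥(S : Subgroup G)) =
            ⟨c, hTS h.c_mem⟩ * ⟨d, hTS (D_le_T h hdD)⟩ := rfl
        rw [this, map_mul, hc, hD _ _ hdD, mul_one]
      · exact ⟨hu, hv⟩
  have hXc : X.ncard = 6 := by
    rw [hX, Set.ncard_image_of_injective _ (mul_right_injective c)]
    have h1 := Set.ncard_union_add_ncard_inter (V₁ : Set G) V₂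
    rw [← Subgroup.coe_inf, h.inf_V, ← Nat.card_coe_set_eq (zpowers z : Set G),
      ← Nat.card_coe_set_eq (V₁ : Set G), ← Nat.card_coe_set_eq (V₂ : Set G),
      SetLike.coe_sort_coe, SetLike.coe_sort_coe, SetLike.coe_sort_coe, h.card_V₁, h.card_V₂,
      Nat.card_zpowers, h.orderOf_z] at h1
    omega
  have hdisj : Disjoint X Y := by
    rw [Set.disjoint_left]
    rintro _ ⟨d, hd, rfl⟩ ⟨hn, -⟩
    exact hn (mul_mem h.c_mem (hd.elim (fun a => h.le_V₁ a) (fun a => h.le_V₂ a)))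
  have hYdvd : 4 ∣ Y.ncard := by
    set E := V₁ ⊔ zpowers c with hE
    have hcl : ∀ (e : ↥E) (u : ↥Y), (e : G) * u * (e : G)⁻¹ ∈ Y := by
      rintro ⟨e, he⟩ ⟨u, hu, hconj, huS, hv⟩
      have heT := E₁_le_T h he
      refine ⟨fun a => hu ?_, hconj.trans (isConj_iff.2 ⟨e, rfl⟩), ?_⟩
      · have := mul_mem (mul_mem (inv_mem heT) a) heT
        simpa [mul_assoc] using this
      · refine ⟨mul_mem (mul_mem (hTS heT) huS) (inv_mem (hTS heT)), ?_⟩
        have : (⟨e * u * e⁻¹, mul_mem (mul_mem (hTS heT) huS) (inv_mem (hTS heT))⟩ :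
            ↥(S : Subgroup G)) = ⟨e, hTS heT⟩ * ⟨u, huS⟩ * ⟨e, hTS heT⟩⁻¹ := rfl
        rw [this, map_mul, map_mul, map_inv, mul_comm (φ ⟨e, _⟩), mul_inv_cancel_right, hv]
    letI act : MulAction ↥E ↥Y :=
      { smul := fun e u => ⟨(e : G) * u * (e : G)⁻¹, hcl e u⟩
        one_smul := fun u => Subtype.ext (show (1 : G) * u * (1 : G)⁻¹ = u by simp)
        mul_smul := fun e e' u => Subtype.ext
          (show ((e : G) * e') * u * ((e : G) * e')⁻¹ = e * (e' * u * (e' : G)⁻¹) * (e : G)⁻¹ by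
            group) }
    have hstab : ∀ u : ↥Y, Nat.card ↥(MulAction.stabilizer ↥E u) = 2 := by
      intro u
      have hz₁ : z ∈ E := mem_sup_left (z_mem₁ h)
      have e : (MulAction.stabilizer ↥E u).map E.subtype = zpowers z := by
        refine le_antisymm ?_ ?_
        · rintro _ ⟨⟨e, he⟩, hes, rfl⟩
          show e ∈ zpowers z
          obtain ⟨-, -, huS, -⟩ := u.2
          have hcom : e * (u : G) * e⁻¹ = u := congrArg Subtype.val hes
          have hue : (u : G) * e * (u : G)⁻¹ = e := by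
            calc (u : G) * e * (u : G)⁻¹ = e * u * e⁻¹ * e * (u : G)⁻¹ := by rw [hcom]
              _ = e := by group
          have he₂ : e ∈ V₂ ⊔ zpowers c := by
            rw [← swap_E₁ h S hTS huS (hN huS) u.2.1, ← hue]
            exact mem_map_of_mem _ he
          have hucu := conj_c h S hTS huS (hN huS) u.2.1
          have hzne : z ≠ 1 := fun a => by
            have := h.orderOf_z; rw [a, orderOf_one] at this; omega
          rcases mem_E_inf h he he₂ with rfl | rfl | rfl | rfl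
          · exact one_mem _
          · exact mem_zpowers _
          · exact absurd (mul_eq_left.mp (hucu.symm.trans hue)) hzne
          · exfalso
            have h4 : (u : G) * (c * z) * (u : G)⁻¹ = c * z * z := by
              calc (u : G) * (c * z) * (u : G)⁻¹
                  = u * c * (u : G)⁻¹ * (u * z * (u : G)⁻¹) := by group
                _ = _ := by rw [hucu, normalizer_fix_z h (hN huS)]
            exact hzne (mul_eq_left.mp (h4.symm.trans hue))
        · rw [zpowers_le]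
          refine ⟨⟨z, hz₁⟩, ?_, rfl⟩
          refine Subtype.ext ?_
          show z * (u : G) * z⁻¹ = u
          obtain ⟨-, -, huS, -⟩ := u.2
          have := mul_inv_eq_iff_eq_mul.1 (normalizer_fix_z h (hN huS))
          rw [← this, mul_inv_cancel_right]
      rw [Nat.card_congr (equivMapOfInjective (MulAction.stabilizer ↥E u) E.subtype E.subtype_injective).toEquiv, e,
        Nat.card_zpowers, h.orderOf_z]
    have horb : ∀ u : ↥Y, Nat.card ↥(MulAction.orbit ↥E u) = 4 := by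
      intro u
      have := Nat.card_congr (MulAction.orbitProdStabilizerEquivGroup ↥E u)
      have hE8 : Nat.card ↥E = 8 := card_E h h.le_V₁ le_sup_left h.card_V₁
      rw [Nat.card_prod, hstab, hE8] at this
      omega
    haveI : Fintype (MulAction.orbitRel.Quotient ↥E ↥Y) := Fintype.ofFinite _
    rw [← Nat.card_coe_set_eq, Nat.card_congr (MulAction.selfEquivSigmaOrbits ↥E ↥Y),
      Nat.card_sigma]
    exact Finset.dvd_sum fun q _ => (horb q.out).symm.dvd
  obtain ⟨j, hj⟩ := hYdvd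
  have hk : Nat.card {u : G // IsConj c u ∧ Val (S : Subgroup G) φ s u} = 6 + 4 * j := by
    show Nat.card ↥{u : G | IsConj c u ∧ Val (S : Subgroup G) φ s u} = _
    rw [Nat.card_coe_set_eq, hset, Set.ncard_union_eq hdisj, hXc, hj]
  rw [transfer_eq (S : Subgroup G) φ hA (sq_c h) (m := 2 * (4 + 3 * j) + 1)
    (by rw [hk, hcard, h.centralizer_c, h.card_P₁]; ring), pow_add, pow_mul, pow_two, hs2,
    one_pow, one_mul, pow_one]

/-- The central involution of `T` is outside the subgroup generated by the odd order elements. -/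
theorem notMem_odd (h : TimesPair P₁ P₂ T V₁ V₂ c z)
    (hP : ∀ v ∈ V₁, v ≠ 1 → ∃ g ∈ P₁, g * z * g⁻¹ = v) :
    c ∉ Subgroup.closure {g : G | Odd (orderOf g)} := by
  classical
  haveI : Fact (Nat.Prime 2) := ⟨Nat.prime_two⟩
  obtain ⟨S, hTS⟩ := h.isPGroup.exists_le_sylow
  set H : Subgroup G := (S : Subgroup G) with hH
  have hDH : V₁ ⊔ V₂ ≤ H := (D_le_T h).trans hTS
  have hnc := not_conj_c_z h S hTS
  by_cases hx : ∃ x ∈ H, x ∉ T
  · obtain ⟨x, hxS, hxT⟩ := hx
    have hN := sylow_le_normalizer h S hTS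
    have hTi : (T.subgroupOf H).index = 2 := by
      refine index_eq_two_iff.2 ⟨⟨x, hxS⟩, fun b => ?_⟩
      simp only [mem_subgroupOf, Subgroup.coe_mul]
      by_cases hb : (b : G) ∈ T
      · exact Or.inr ⟨hb, fun a => hxT ((mul_mem_cancel_left hb).1 a)⟩
      · exact Or.inl ⟨mul_mem_T h S hTS b.2 (hN b.2) hb hxS (hN hxS) hxT, hb⟩
    have hcard : Nat.card ↥H = 32 := by
      rw [← card_mul_index (T.subgroupOf H), hTi,
        Nat.card_congr (Subgroup.subgroupOfEquivOfLe hTS).toEquiv, h.card_T]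
    have hnorm : ((V₁ ⊔ V₂).subgroupOf H).Normal := by
      refine ⟨fun d hd b => ?_⟩
      rw [mem_subgroupOf] at hd ⊢
      simp only [Subgroup.coe_mul, Subgroup.coe_inv]
      by_cases hb : (b : G) ∈ T
      · have := (mul_mem_iff_of_index_two (index_D h) (a := ⟨(b : G) * d, mul_mem hb (D_le_T h hd)⟩)
          (b := ⟨(b : G)⁻¹, inv_mem hb⟩))
        simp only [mem_subgroupOf, Subgroup.coe_mul] at this
        refine this.2 ?_
        have h' := (mul_mem_iff_of_index_two (index_D h) (a := ⟨(b : G), hb⟩)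
          (b := ⟨(d : G), D_le_T h hd⟩))
        simp only [mem_subgroupOf, Subgroup.coe_mul] at h'
        rw [h', inv_mem_iff]
        simp [hd]
      · have hmap : (V₁ ⊔ V₂).map (MulAut.conj (b : G)).toMonoidHom = V₁ ⊔ V₂ := by
          rw [Subgroup.map_sup, swap_V₁ h hP S hTS b.2 (hN b.2) hb,
            swap_V₂ h hP S hTS b.2 (hN b.2) hb, sup_comm]
        rw [← hmap]
        exact mem_map_of_mem (MulAut.conj (b : G)).toMonoidHom hd
    let Q := ↥H ⧸ (V₁ ⊔ V₂).subgroupOf H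
    have hQ : Nat.card Q = 2 ^ 2 := by
      have := card_mul_index ((V₁ ⊔ V₂).subgroupOf H)
      rw [Nat.card_congr (Subgroup.subgroupOfEquivOfLe hDH).toEquiv, h.card_D, hcard] at this
      show ((V₁ ⊔ V₂).subgroupOf H).index = _
      omega
    letI : CommGroup Q := IsPGroup.commGroupOfCardEqPrimeSq hQ
    let π : ↥H →* Q := QuotientGroup.mk' _
    have hπ : ∀ b : ↥H, π b = 1 ↔ (b : G) ∈ V₁ ⊔ V₂ := fun b =>
      (QuotientGroup.eq_one_iff b).trans mem_subgroupOf
    set s := π ⟨c, hTS h.c_mem⟩ with hsdef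
    have hs : s ≠ 1 := fun a => h.c_notMem ((hπ _).1 a)
    have hs2 : s * s = 1 := by
      rw [hsdef, ← map_mul, hπ]
      simp [sq_c h]
    set r := π ⟨x, hxS⟩ with hrdef
    have hall : ∀ q : Q, q = 1 ∨ q = s ∨ q = r ∨ q = r * s := by
      intro q
      obtain ⟨b, rfl⟩ := QuotientGroup.mk'_surjective ((V₁ ⊔ V₂).subgroupOf H) q
      show π b = 1 ∨ π b = s ∨ π b = r ∨ π b = r * s
      have inT : ∀ t : ↥H, (t : G) ∈ T → π t = 1 ∨ π t = s := by
        intro t ht
        rcases mem_T_cases h ht with a | a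
        · exact Or.inl ((hπ t).2 a)
        · right
          have h1 : π (⟨c, hTS h.c_mem⟩ * t) = 1 := (hπ _).2 a
          rw [map_mul, ← hsdef] at h1
          calc π t = s * s * π t := by rw [hs2, one_mul]
            _ = s := by rw [mul_assoc, h1, mul_one]
      by_cases hb : (b : G) ∈ T
      · exact (inT b hb).imp id Or.inl
      · have hm : ((⟨x, hxS⟩⁻¹ * b : ↥H) : G) ∈ T :=
          mul_mem_T h S hTS (inv_mem hxS) (hN (inv_mem hxS)) (fun a => hxT (inv_mem_iff.1 a))
            b.2 (hN b.2) hb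
        rcases inT _ hm with a | a <;> rw [map_mul, map_inv, inv_mul_eq_iff_eq_mul, ← hrdef] at a
        · exact Or.inr (Or.inr (Or.inl (by rw [a, mul_one])))
        · exact Or.inr (Or.inr (Or.inr a))
    have hr : r ≠ 1 ∧ r ≠ s := by
      refine ⟨fun a => hxT (D_le_T h ((hπ _).1 a)), fun a => hxT ?_⟩
      have h1 : π (⟨c, hTS h.c_mem⟩ * ⟨x, hxS⟩) = 1 := by
        rw [map_mul, ← hsdef, ← hrdef, a, hs2]
      have h2 := mul_mem h.c_mem (D_le_T h ((hπ _).1 h1))
      simpa [← mul_assoc, sq_c h] using h2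
    have hQ4 : ∀ q : Q, q ^ 4 = 1 := fun q => by
      rw [show (4 : ℕ) = Nat.card Q by rw [hQ]; norm_num]
      exact pow_card_eq_one'
    by_cases hr2 : r * r = 1
    · have hM : (zpowers r).index = 2 := by
        have h1 := card_mul_index (zpowers r)
        rw [Nat.card_zpowers, orderOf_eq_prime (p := 2) (by rw [pow_two]; exact hr2) hr.1, hQ] at h1
        omega
      have hsM : s ∉ zpowers r := by
        rintro ⟨n, hn⟩
        simp only at hn
        have hr2' : r ^ (2 : ℤ) = 1 := by rw [zpow_two]; exact hr2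
        rcases Int.even_or_odd n with ⟨k, rfl⟩ | ⟨k, rfl⟩
        · rw [← two_mul, zpow_mul, hr2', one_zpow] at hn
          exact hs hn.symm
        · rw [zpow_add, zpow_mul, hr2', one_zpow, one_mul, zpow_one] at hn
          exact hr.2 hn
      let φ : ↥H →* ℤˣ := (Cfsg.Agent.H77.indexTwoHom (zpowers r) hM).comp π
      have hval := transfer_c h hP S hTS hcard hxS hxT φ (s := -1) (by decide) (by decide)
        (fun a _ => Int.units_eq_one_or a)
        (fun d hd hdD => by
          show Cfsg.Agent.H77.indexTwoHom (zpowers r) hM (π ⟨d, hd⟩) = 1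
          rw [(hπ _).2 hdD, map_one])
        (Cfsg.Agent.H77.indexTwoHom_of_not_mem _ hM hsM)
      refine notMem_closure_odd (MonoidHom.transfer φ) (by rw [hval]; decide) fun a => ?_
      rcases Int.units_eq_one_or a with rfl | rfl <;> decide
    · have hA : ∀ q : Q, q * q = 1 → q = 1 ∨ q = s := by
        intro q hq
        rcases hall q with a | a | a | a
        · exact Or.inl a
        · exact Or.inr a
        · exact absurd (a ▸ hq) hr2
        · rw [a, mul_mul_mul_comm, hs2, mul_one] at hq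
          exact absurd hq hr2
      have hval := transfer_c h hP S hTS hcard hxS hxT π hs hs2 hA
        (fun d hd hdD => (hπ ⟨d, hd⟩).2 hdD) hsdef.symm
      exact notMem_closure_odd (MonoidHom.transfer π) (by rw [hval]; exact hs) hQ4
  · push Not at hx
    have hST : H = T := le_antisymm hx hTS
    have hM : ((V₁ ⊔ V₂).subgroupOf H).index = 2 := by rw [hST]; exact index_D h
    let φ : ↥H →* ℤˣ := Cfsg.Agent.H77.indexTwoHom _ hM
    have hval : MonoidHom.transfer φ c = -1 := by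
      refine transfer_eq_neg_one S φ (sq_c h) fun y hy => ?_
      refine Cfsg.Agent.H77.indexTwoHom_of_not_mem _ hM fun hyD => ?_
      rw [mem_subgroupOf] at hyD
      have hy1 : (y : G) ≠ 1 := fun a => by
        rw [a] at hy
        exact c_ne_one h (isConj_one_left.1 hy)
      rcases mem_V_of_mem_D h hyD (sq_of_conj (sq_c h) hy) with a | a
      · exact hnc (hy.trans (h.conj_V₁ _ a hy1).symm)
      · exact hnc (hy.trans (h.conj_V₂ _ a hy1).symm)
    refine notMem_closure_odd (MonoidHom.transfer φ) (by rw [hval]; decide) fun a => ?_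
    rcases Int.units_eq_one_or a with rfl | rfl <;> decide

end transfer

end Cfsg.Agent.H83.ZNLocal
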